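import Mathlib
import Cfsg.Prelude.Def_OddOrderLocal
import Cfsg.Statements.S1350
import Cfsg.Statements.S1403
import Cfsg.Statements.S1415
import Cfsg.Statements.S1417
import Cfsg.Statements.S1418
import Cfsg.Statements.S1419
import Cfsg.Statements.S1422
import Cfsg.Statements.S1427
import Cfsg.Statements.S1428

/-!
# Bender–Glauberman 13.12 (`tau12_regular`), the `M`-side: package statements

Team project led by helper15.  Paper proof: note 2141 (topic `S1430`), steps (1)–(6).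

Setting (`Cx M E A P p q`): `M` a maximal subgroup, `E` a complement of `M_σ` in `M`,
`q ∈ τ₂(M)`, `A ≤ E` elementary abelian of order `q ^ 2`, `p ∈ τ₁(M)`, `P ≤ E` of order `p`,
`C_A(P) ≠ 1` and (for a contradiction) `C_{M_σ}(P) ≠ 1`.

The `M`-side shows: `A₀ := C_A(P)` has order `q`, `N(A₀) ≤ M ≤ C(A₀)`, and `N(A)` contains a
nonabelian `q`-subgroup.  The `L`-side (helper24, `tau12_Lside`) derives `False` from that.

Each `Pk…` below is the exact statement of one package; a package is a theorem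
`… : Cfsg.Agent.Lib.Helper15.BG.T12.Pk….{u}` proved in the taker's own Lib file.
-/

set_option autoImplicit false

namespace Cfsg.Agent.Lib.Helper15.BG.T12

open Cfsg

universe u

/-- The earlier statements of the Bender–Glauberman chain used on the `M`-side of 13.12. -/
structure Hy {G : Type u} [Group G] [Finite G] (hG : Cfsg.IsMinSimpleOddOrder G) : Prop where
  h1350 : type_of% (@Cfsg.CfsgFrozen.S1350 G _ _ hG)
  h1403 : type_of% (@Cfsg.CfsgFrozen.S1403 G _ _ hG)
  h1415 : type_of% (@Cfsg.CfsgFrozen.S1415 G _ _ hG)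
  h1417 : type_of% (@Cfsg.CfsgFrozen.S1417 G _ _ hG)
  h1418 : type_of% (@Cfsg.CfsgFrozen.S1418 G _ _ hG)
  h1419 : type_of% (@Cfsg.CfsgFrozen.S1419 G _ _ hG)
  h1422 : type_of% (@Cfsg.CfsgFrozen.S1422 G _ _ hG)
  h1427 : type_of% (@Cfsg.CfsgFrozen.S1427 G _ _ hG)
  h1428 : type_of% (@Cfsg.CfsgFrozen.S1428 G _ _ hG)

/-- A would-be counterexample to BG 13.12. -/
structure Cx {G : Type u} [Group G] (M E A P : Subgroup G) (p q : ℕ) : Prop where
  hM : IsCoatom M
  hE : Cfsg.IsComplIn E (Cfsg.sigmaCore M) M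
  hq : q ∈ Cfsg.tau2 M
  hAE : A ≤ E
  hAe : Cfsg.IsElementaryAbelian q A
  hA2 : Nat.card A = q ^ 2
  hp : p ∈ Cfsg.tau1 M
  hPE : P ≤ E
  hP : Nat.card P = p
  hne : A ⊓ Subgroup.centralizer (P : Set G) ≠ ⊥
  hD : Cfsg.sigmaCore M ⊓ Subgroup.centralizer (P : Set G) ≠ ⊥

/-! ### Pure group theory -/

/-- Package A2 (coprime action on a group of order `q ^ 2`).  `P` of prime order `p ≠ q`
normalizes the elementary abelian group `A` of order `q ^ 2` and `C_A(P)` has order `q`.  Then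
`A` has a subgroup `A₂` of order `q` with `C_{A₂}(P) = 1` (namely `[A, P]`) that is normalized by
every element of `N(A)` centralizing `P`. -/
def PkA2 : Prop :=
  ∀ {G : Type u} [Group G] [Finite G] (p q : ℕ), p.Prime → q.Prime → p ≠ q →
    ∀ A P : Subgroup G, Cfsg.IsElementaryAbelian q A → Nat.card A = q ^ 2 →
      P ≤ Subgroup.normalizer (A : Set G) → Nat.card P = p →
      Nat.card ↥(A ⊓ Subgroup.centralizer (P : Set G)) = q →
      ∃ A₂ : Subgroup G, A₂ ≤ A ∧ Nat.card A₂ = q ∧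
        A₂ ⊓ Subgroup.centralizer (P : Set G) = ⊥ ∧
        ∀ e ∈ Subgroup.normalizer (A : Set G), (∀ x ∈ P, e * x = x * e) →
          e ∈ Subgroup.normalizer (A₂ : Set G)

/-! ### Steps (1)–(3) -/

/-- Package Struct (steps (1)–(3) of note 2141, = helper76's note 1998).  In a counterexample:
`A₀ := C_A(P)` has order `q` (`P` does not centralize `A`: S1428 and the regular point of
S1417), `C_{M_σ}(A₀) ≠ 1` (S1428), `N(A₀) ≤ M` (S1418, last clause), and some `q`-element of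
`N(A)` does not centralize `A` (otherwise `N(A)'` centralizes `A`, by
`Helper15.BG.comm_normalizer_centralizes`, so `N(A)` normalizes `C_A(P) = A₀` and
`N(A) ≤ N(A₀) ≤ M`, against S1418). -/
def PkStruct : Prop :=
  ∀ {G : Type u} [Group G] [Finite G] (hG : Cfsg.IsMinSimpleOddOrder G), Hy hG →
    ∀ (M E A P : Subgroup G) (p q : ℕ), Cx M E A P p q →
      Nat.card ↥(A ⊓ Subgroup.centralizer (P : Set G)) = q ∧
      Cfsg.sigmaCore M ⊓
          Subgroup.centralizer ((A ⊓ Subgroup.centralizer (P : Set G) : Subgroup G) : Set G) ≠ ⊥ ∧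
      Subgroup.normalizer ((A ⊓ Subgroup.centralizer (P : Set G) : Subgroup G) : Set G) ≤ M ∧
      ∃ t ∈ Subgroup.normalizer (A : Set G), (∃ k : ℕ, t ^ q ^ k = 1) ∧ ∃ a ∈ A, t * a ≠ a * t

/-! ### Steps (4), (5) -/

/-- Package Prime (steps (4), (5)).  In a counterexample in which `C_{M_σ}(X) = 1` for every
`X ≤ E` of order `q` other than `A₀ = C_A(P)` (from S1419), given `A₂` as in `PkA2`:
`p` is the only prime of `τ₁(M)` dividing `|E|`, and `p ^ 2 ∤ |E|`.

Proof.  `C_{M_σ}(A₂) = 1`.  Let `E₁ ≥ P` be a Hall `τ₁(M)`-subgroup of `E` (cyclic, S1415) and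
`Y ≤ E₁` of prime order `r`.  S1428 both ways: `C_{M_σ}(Y) = C_{M_σ}(P) =: D`.  `Y` normalizes
`A₂`, and does not centralize it (else S1428 with `R := A₂` gives `D ≤ C_{M_σ}(A₂) = 1`), so
`A₂ Y` is a Frobenius group and `Helper97.FrobFormula.frob_formula` gives `|M_σ| = |D| ^ r`;
with `Y := P`: `|M_σ| = |D| ^ p`; so `r = p`.  For a Sylow `p`-subgroup `S ≥ P` of `E` (cyclic),
S1427 gives `C_{M_σ}(u) = D` for `u ∈ S`, `u ≠ 1`, `S` acts fixed-point-freely on `A₂`, and
`frob_formula` gives `|M_σ| = |D| ^ |S|`, so `|S| = p`. -/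
def PkPrime : Prop :=
  ∀ {G : Type u} [Group G] [Finite G] (hG : Cfsg.IsMinSimpleOddOrder G), Hy hG →
    ∀ (M E A P : Subgroup G) (p q : ℕ), Cx M E A P p q →
      (∀ X : Subgroup G, X ≤ E → Nat.card X = q → X ≠ A ⊓ Subgroup.centralizer (P : Set G) →
        Cfsg.sigmaCore M ⊓ Subgroup.centralizer (X : Set G) = ⊥) →
      ∀ A₂ : Subgroup G, A₂ ≤ A → Nat.card A₂ = q →
        A₂ ⊓ Subgroup.centralizer (P : Set G) = ⊥ →
        (∀ e ∈ Subgroup.normalizer (A : Set G), (∀ x ∈ P, e * x = x * e) →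
          e ∈ Subgroup.normalizer (A₂ : Set G)) →
        (∀ r : ℕ, r ∈ Cfsg.tau1 M → r ∣ Nat.card E → r = p) ∧ ¬ p ^ 2 ∣ Nat.card E

/-! ### Step (6) -/

/-- Package Cent (step (6)).  In a counterexample with `|A₀| = q`, `A₀ = A ∩ C(M_σ)` and
`τ₂(M) = {q}` (S1419), if `p` is the only prime of `τ₁(M)` dividing `|E|` and `p ^ 2 ∤ |E|`, then
`M` centralizes `A₀ = C_A(P)`.

Proof.  `E` normalizes `A₀ = A ∩ C(M_σ)`, a group of order `q`; so `q`-elements of `E` and `E'`
centralize `A₀`; a Hall `τ₃(M)`-subgroup of `E` lies in `E'` (S1415); a Sylow `p`-subgroup of `E`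
is a conjugate of `P`, which centralizes `A₀`; the primes of `|E|` lie in
`τ₁(M) ∪ τ₂(M) ∪ τ₃(M)` (`α(M) ⊆ σ(M)`, `Helper78.BG.alpha_subset_sigma`).  So the normal
subgroup `C_E(A₀)` of `E` contains a Sylow subgroup of `E` for every prime, `E ≤ C(A₀)`; and
`M_σ ≤ C(A₀)`, `M = M_σ E`. -/
def PkCent : Prop :=
  ∀ {G : Type u} [Group G] [Finite G] (hG : Cfsg.IsMinSimpleOddOrder G), Hy hG →
    ∀ (M E A P : Subgroup G) (p q : ℕ), Cx M E A P p q →
      Nat.card ↥(A ⊓ Subgroup.centralizer (P : Set G)) = q →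
      A ⊓ Subgroup.centralizer (P : Set G) =
        A ⊓ Subgroup.centralizer (Cfsg.sigmaCore M : Set G) →
      Cfsg.tau2 M = {q} →
      (∀ r : ℕ, r ∈ Cfsg.tau1 M → r ∣ Nat.card E → r = p) → ¬ p ^ 2 ∣ Nat.card E →
      M ≤ Subgroup.centralizer ((A ⊓ Subgroup.centralizer (P : Set G) : Subgroup G) : Set G)

end Cfsg.Agent.Lib.Helper15.BG.T12
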