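import Mathlib
import Cfsg.Prelude.Def_OddOrderLocal
import Cfsg.Agent.Lib.Helper15.BG.Tau12Defs

/-!
# Bender–Glauberman 13.12, the `M`-side: assembly of the packages

`tau12_Mside_of` derives, in a would-be counterexample `Cx M E A P p q` to 13.12, the four facts
that the `L`-side needs: `A₀ := C_A(P)` has order `q`, `N(A₀) ≤ M ≤ C(A₀)`, and `N(A)` contains
a nonabelian `q`-subgroup.
-/

set_option autoImplicit false

namespace Cfsg.Agent.Lib.Helper15.BG.T12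

open Cfsg

universe u

theorem comm_iff_forall {G : Type u} [Group G] (H : Subgroup G) :
    IsMulCommutative H ↔ ∀ a ∈ H, ∀ b ∈ H, a * b = b * a := by
  constructor
  · intro h a ha b hb
    have := h.is_comm.comm (⟨a, ha⟩ : H) ⟨b, hb⟩
    exact congrArg Subtype.val this
  · intro h
    exact ⟨⟨fun a b => Subtype.ext (h a.1 a.2 b.1 b.2)⟩⟩

/-- Every Sylow `q`-subgroup of `G` is nonabelian as soon as some `q`-subgroup is. -/
theorem sylow_not_comm_of {G : Type u} [Group G] [Finite G] (q : ℕ) [Fact q.Prime]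
    (P₀ : Subgroup G) (hP₀ : IsPGroup q P₀) (hna : ¬ IsMulCommutative P₀) (S : Sylow q G) :
    ¬ IsMulCommutative (S : Subgroup G) := by
  intro hS
  obtain ⟨Q, hQ⟩ := hP₀.exists_le_sylow
  obtain ⟨g, hg⟩ := MulAction.exists_smul_eq G Q S
  apply hna
  rw [comm_iff_forall] at hS ⊢
  intro a ha b hb
  have hmem : ∀ x ∈ P₀, g * x * g⁻¹ ∈ (S : Subgroup G) := by
    intro x hx
    have hxQ : x ∈ (Q : Subgroup G) := hQ hx
    rw [← hg, Sylow.coe_subgroup_smul, Subgroup.mem_pointwise_smul_iff_inv_smul_mem]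
    simpa [MulAut.smul_def, mul_assoc] using hxQ
  have h := hS _ (hmem a ha) _ (hmem b hb)
  have h2 : g * (a * b) * g⁻¹ = g * (b * a) * g⁻¹ := by
    calc g * (a * b) * g⁻¹ = (g * a * g⁻¹) * (g * b * g⁻¹) := by group
      _ = (g * b * g⁻¹) * (g * a * g⁻¹) := h
      _ = g * (b * a) * g⁻¹ := by group
  exact mul_left_cancel (mul_right_cancel h2)

/-- The `M`-side of BG 13.12, from the four packages. -/
theorem tau12_Mside_of (pkA2 : PkA2.{u}) (pkStruct : PkStruct.{u}) (pkPrime : PkPrime.{u})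
    (pkCent : PkCent.{u}) {G : Type u} [Group G] [Finite G] (hG : Cfsg.IsMinSimpleOddOrder G)
    (hy : Hy hG) (M E A P : Subgroup G) (p q : ℕ) (cx : Cx M E A P p q) :
    Nat.card ↥(A ⊓ Subgroup.centralizer (P : Set G)) = q ∧
      Subgroup.normalizer ((A ⊓ Subgroup.centralizer (P : Set G) : Subgroup G) : Set G) ≤ M ∧
      M ≤ Subgroup.centralizer ((A ⊓ Subgroup.centralizer (P : Set G) : Subgroup G) : Set G) ∧
      ∃ P₀ : Subgroup G, IsPGroup q P₀ ∧ ¬ IsMulCommutative P₀ ∧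
        P₀ ≤ Subgroup.normalizer (A : Set G) := by
  have hqp : q.Prime := cx.hq.1
  have hpp : p.Prime := cx.hp.1
  have : Fact q.Prime := ⟨hqp⟩
  have hpq : p ≠ q := by
    rintro rfl
    exact cx.hq.2.2.2 cx.hp.2.2.2.2
  obtain ⟨hA0, hDA0, hNA0, t, htN, ⟨k, htk⟩, a, haA, hta⟩ := pkStruct hG hy M E A P p q cx
  -- the nonabelian `q`-group `A ⟨t⟩`
  have hAq : IsPGroup q A := IsPGroup.of_card cx.hA2
  have htq : IsPGroup q (Subgroup.zpowers t) := by
    intro x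
    obtain ⟨i, hi⟩ := x.2
    refine ⟨k, ?_⟩
    apply Subtype.ext
    simp only [Subgroup.coe_pow, Subgroup.coe_one]
    rw [← hi, ← zpow_natCast, ← zpow_mul, mul_comm, zpow_mul, zpow_natCast, htk, one_zpow]
  have htN' : Subgroup.zpowers t ≤ Subgroup.normalizer (A : Set G) := by
    rw [Subgroup.zpowers_le]; exact htN
  have hP₀ : IsPGroup q (A ⊔ Subgroup.zpowers t : Subgroup G) := by
    rw [sup_comm]
    exact IsPGroup.to_sup_of_normal_right' htq hAq htN'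
  have hP₀na : ¬ IsMulCommutative (A ⊔ Subgroup.zpowers t : Subgroup G) := by
    rw [comm_iff_forall]
    intro h
    exact hta (h t (le_sup_right (a := A) (Subgroup.mem_zpowers t)) a (le_sup_left (b := Subgroup.zpowers t) haA))
  have hP₀N : (A ⊔ Subgroup.zpowers t : Subgroup G) ≤ Subgroup.normalizer (A : Set G) :=
    sup_le Subgroup.le_normalizer htN'
  have hS : ∀ S : Sylow q G, ¬ IsMulCommutative (S : Subgroup G) :=
    sylow_not_comm_of q _ hP₀ hP₀na
  -- S1419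
  obtain ⟨htau2, ⟨_, _⟩, h3⟩ :=
    hy.h1419 M cx.hM E cx.hE q cx.hq hS A ⟨cx.hAE, cx.hAe, cx.hA2⟩
  have hA0eq : A ⊓ Subgroup.centralizer (P : Set G) =
      A ⊓ Subgroup.centralizer (Cfsg.sigmaCore M : Set G) := by
    by_contra h
    exact hDA0 (h3 _ (inf_le_left.trans cx.hAE) hA0 h).1
  -- S1418: `E ≤ N(A)`
  have hEN : E ≤ Subgroup.normalizer (A : Set G) :=
    (hy.h1418 M cx.hM E cx.hE q cx.hq A ⟨cx.hAE, cx.hAe, cx.hA2⟩).1.1
  obtain ⟨A₂, hA₂A, hA₂c, hA₂P, hA₂N⟩ :=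
    pkA2 p q hpp hqp hpq A P cx.hAe cx.hA2 (cx.hPE.trans hEN) cx.hP hA0
  obtain ⟨hr, hp2⟩ := pkPrime hG hy M E A P p q cx
    (fun X hXE hX hne => (h3 X hXE hX (by rw [← hA0eq]; exact hne)).1) A₂ hA₂A hA₂c hA₂P hA₂N
  exact ⟨hA0, hNA0, pkCent hG hy M E A P p q cx hA0 hA0eq htau2 hr hp2,
    A ⊔ Subgroup.zpowers t, hP₀, hP₀na, hP₀N⟩

end Cfsg.Agent.Lib.Helper15.BG.T12
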