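import Mathlib
import Cfsg.Prelude.Def_OddOrderLocal
import Cfsg.Agent.Lib.Helper15.BG.Tau12M

/-!
# Bender–Glauberman 13.12 (`tau12_regular`): assembly of the `M`-side and the `L`-side

`LsideFor G` is the statement of the `L`-side (helper24's `tau12_Lside`) for the group `G`;
`tau12_regular_of` derives 13.12 for `G` from the four `M`-side packages and the `L`-side.
-/

set_option autoImplicit false

namespace Cfsg.Agent.Lib.Helper15.BG.T12

open Cfsg

universe u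

/-- The `L`-side of BG 13.12 for the group `G`: no maximal subgroup `M` with complement `E` of
`M_σ`, `A ≤ E` elementary abelian of order `r ^ 2` (`r ∈ τ₂(M)`), `Y ≤ E` of order `q ∈ τ₁(M)`
has `|C_A(Y)| = r`, `N(C_A(Y)) ≤ M ≤ C(C_A(Y))` and a nonabelian `r`-subgroup of `N(A)`. -/
def LsideFor (G : Type u) [Group G] : Prop :=
  ∀ (M : Subgroup G), IsCoatom M → ∀ E : Subgroup G, Cfsg.IsComplIn E (Cfsg.sigmaCore M) M →
    ∀ (r : ℕ) [Fact r.Prime], r ∈ Cfsg.tau2 M → ∀ A : Subgroup G,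
      (A ≤ E ∧ Cfsg.IsElementaryAbelian r A ∧ Nat.card A = r ^ 2) →
      ∀ q : ℕ, q ∈ Cfsg.tau1 M → ∀ Y : Subgroup G, Y ≤ E → Nat.card Y = q →
        Nat.card ↥(A ⊓ Subgroup.centralizer (Y : Set G)) = r →
        Subgroup.normalizer ((A ⊓ Subgroup.centralizer (Y : Set G) : Subgroup G) : Set G) ≤ M →
        M ≤ Subgroup.centralizer ((A ⊓ Subgroup.centralizer (Y : Set G) : Subgroup G) : Set G) →
        ∀ P₀ : Subgroup G, IsPGroup r P₀ → ¬ IsMulCommutative P₀ →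
          P₀ ≤ Subgroup.normalizer (A : Set G) → False

/-- BG 13.12 for `G`, from the four `M`-side packages and the `L`-side. -/
theorem tau12_regular_of (pkA2 : PkA2.{u}) (pkStruct : PkStruct.{u}) (pkPrime : PkPrime.{u})
    (pkCent : PkCent.{u}) {G : Type u} [Group G] [Finite G] (hG : Cfsg.IsMinSimpleOddOrder G)
    (hy : Hy hG) (hL : LsideFor G) :
    ∀ (M : Subgroup G), IsCoatom M → ∀ E : Subgroup G, Cfsg.IsComplIn E (Cfsg.sigmaCore M) M →
      ∀ (q : ℕ), q ∈ Cfsg.tau2 M → ∀ A : Subgroup G, A ≤ E → Cfsg.IsElementaryAbelian q A →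
        Nat.card A = q ^ 2 → ∀ (p : ℕ), p ∈ Cfsg.tau1 M → ∀ P : Subgroup G, P ≤ E →
          Nat.card P = p → A ⊓ Subgroup.centralizer (P : Set G) ≠ ⊥ →
          Cfsg.sigmaCore M ⊓ Subgroup.centralizer (P : Set G) = ⊥ := by
  intro M hM E hE q hq A hAE hAe hA2 p hp P hPE hP hne
  by_contra hD
  have cx : Cx M E A P p q := ⟨hM, hE, hq, hAE, hAe, hA2, hp, hPE, hP, hne, hD⟩
  obtain ⟨h1, h2, h3, P₀, h4, h5, h6⟩ :=
    tau12_Mside_of pkA2 pkStruct pkPrime pkCent hG hy M E A P p q cx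
  have : Fact q.Prime := ⟨hq.1⟩
  exact hL M hM E hE q hq A ⟨hAE, hAe, hA2⟩ p hp P hPE hP h1 h2 h3 P₀ h4 h5 h6

end Cfsg.Agent.Lib.Helper15.BG.T12
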